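/-
Integer coordinates for icosians; quaternionic reflections.
-/
import Cfsg.Prelude.Def_Spor_J2
import Cfsg.Agent.PM.Ch

set_option autoImplicit false
set_option linter.unusedSimpArgs false
set_option linter.unusedVariables false

namespace CA.J2

open Cfsg.Spor Quaternion CA.TC

/-- doubled coordinates -/
structure Ic where
  a0 : ℤ
  b0 : ℤ
  a1 : ℤ
  b1 : ℤ
  a2 : ℤ
  b2 : ℤ
  a3 : ℤ
  b3 : ℤ

/-- the quaternion -/
noncomputable def ev (x : Ic) : ℍ[ℝ] :=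
  ⟨(x.a0 + x.b0 * tau) / 2, (x.a1 + x.b1 * tau) / 2, (x.a2 + x.b2 * tau) / 2, (x.a3 + x.b3 * tau) / 2⟩

@[simp] theorem ev_0 (x : Ic) : (ev x).re = (x.a0 + x.b0 * tau) / 2 := rfl
@[simp] theorem ev_1 (x : Ic) : (ev x).imI = (x.a1 + x.b1 * tau) / 2 := rfl
@[simp] theorem ev_2 (x : Ic) : (ev x).imJ = (x.a2 + x.b2 * tau) / 2 := rfl
@[simp] theorem ev_3 (x : Ic) : (ev x).imK = (x.a3 + x.b3 * tau) / 2 := rfl

theorem s5 : Real.sqrt 5 = 2 * tau - 1 := by unfold tau; ring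
theorem tt : tau * tau = tau + 1 := by
  have := Real.mul_self_sqrt (show (0 : ℝ) ≤ 5 by norm_num)
  rw [s5] at this; linarith
theorem sig_eq : sig = 1 - tau := by unfold sig tau; ring

theorem irr {a b c d : ℤ} (h : (a : ℝ) + b * tau = c + d * tau) : a = c ∧ b = d := by
  have i : Irrational (Real.sqrt 5) := by simpa using Nat.Prime.irrational_sqrt (p := 5) (by norm_num)
  by_cases e : b = d
  · subst e; exact ⟨by exact_mod_cast (by linarith : (a : ℝ) = c), rfl⟩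
  · exfalso
    have n : ((b - d : ℤ) : ℝ) ≠ 0 := by exact_mod_cast sub_ne_zero.2 e
    refine i.ne_rat (2 * ((c - a : ℤ) / (b - d : ℤ)) - 1) ?_
    rw [s5]; push_cast at n ⊢; field_simp; linarith

theorem ev_inj {x y : Ic} (h : ev x = ev y) : x = y := by
  have h0 := irr (a := x.a0) (b := x.b0) (c := y.a0) (d := y.b0) (by have := congrArg (·.re) h; simp only [ev_0, ev_1, ev_2, ev_3] at this; linarith)
  have h1 := irr (a := x.a1) (b := x.b1) (c := y.a1) (d := y.b1) (by have := congrArg (·.imI) h; simp only [ev_0, ev_1, ev_2, ev_3] at this; linarith)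
  have h2 := irr (a := x.a2) (b := x.b2) (c := y.a2) (d := y.b2) (by have := congrArg (·.imJ) h; simp only [ev_0, ev_1, ev_2, ev_3] at this; linarith)
  have h3 := irr (a := x.a3) (b := x.b3) (c := y.a3) (d := y.b3) (by have := congrArg (·.imK) h; simp only [ev_0, ev_1, ev_2, ev_3] at this; linarith)
  cases x; cases y; simp_all

/-- sum -/
def Ic.ad (x y : Ic) : Ic := ⟨x.a0.add y.a0, x.b0.add y.b0, x.a1.add y.a1, x.b1.add y.b1, x.a2.add y.a2, x.b2.add y.b2,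
  x.a3.add y.a3, x.b3.add y.b3⟩
/-- difference -/
def Ic.sb (x y : Ic) : Ic := ⟨x.a0.sub y.a0, x.b0.sub y.b0, x.a1.sub y.a1, x.b1.sub y.b1, x.a2.sub y.a2, x.b2.sub y.b2,
  x.a3.sub y.a3, x.b3.sub y.b3⟩
/-- multiple -/
def Ic.sm (k : ℤ) (x : Ic) : Ic := ⟨k.mul x.a0, k.mul x.b0, k.mul x.a1, k.mul x.b1, k.mul x.a2, k.mul x.b2,
  k.mul x.a3, k.mul x.b3⟩
/-- conjugate -/
def Ic.st (x : Ic) : Ic := ⟨x.a0, x.b0, x.a1.neg, x.b1.neg, x.a2.neg, x.b2.neg, x.a3.neg, x.b3.neg⟩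
/-- quotient -/
def Ic.dv (x : Ic) (k : ℤ) : Ic := ⟨x.a0 / k, x.b0 / k, x.a1 / k, x.b1 / k, x.a2 / k, x.b2 / k, x.a3 / k, x.b3 / k⟩
/-- rational part of a product -/
def pA (a b c d : ℤ) : ℤ := (a.mul c).add (b.mul d)
/-- irrational part of a product -/
def pB (a b c d : ℤ) : ℤ := (a.mul d).add (b.mul (c.add d))
/-- twice the product -/
def Ic.m4 (x y : Ic) : Ic :=
  ⟨(((pA x.a0 x.b0 y.a0 y.b0).sub (pA x.a1 x.b1 y.a1 y.b1)).sub (pA x.a2 x.b2 y.a2 y.b2)).sub (pA x.a3 x.b3 y.a3 y.b3),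
   (((pB x.a0 x.b0 y.a0 y.b0).sub (pB x.a1 x.b1 y.a1 y.b1)).sub (pB x.a2 x.b2 y.a2 y.b2)).sub (pB x.a3 x.b3 y.a3 y.b3),
   (((pA x.a0 x.b0 y.a1 y.b1).add (pA x.a1 x.b1 y.a0 y.b0)).add (pA x.a2 x.b2 y.a3 y.b3)).sub (pA x.a3 x.b3 y.a2 y.b2),
   (((pB x.a0 x.b0 y.a1 y.b1).add (pB x.a1 x.b1 y.a0 y.b0)).add (pB x.a2 x.b2 y.a3 y.b3)).sub (pB x.a3 x.b3 y.a2 y.b2),
   (((pA x.a0 x.b0 y.a2 y.b2).sub (pA x.a1 x.b1 y.a3 y.b3)).add (pA x.a2 x.b2 y.a0 y.b0)).add (pA x.a3 x.b3 y.a1 y.b1),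
   (((pB x.a0 x.b0 y.a2 y.b2).sub (pB x.a1 x.b1 y.a3 y.b3)).add (pB x.a2 x.b2 y.a0 y.b0)).add (pB x.a3 x.b3 y.a1 y.b1),
   (((pA x.a0 x.b0 y.a3 y.b3).add (pA x.a1 x.b1 y.a2 y.b2)).sub (pA x.a2 x.b2 y.a1 y.b1)).add (pA x.a3 x.b3 y.a0 y.b0),
   (((pB x.a0 x.b0 y.a3 y.b3).add (pB x.a1 x.b1 y.a2 y.b2)).sub (pB x.a2 x.b2 y.a1 y.b1)).add (pB x.a3 x.b3 y.a0 y.b0)⟩
/-- rational part of the norm -/
def Ic.nA (x : Ic) : ℤ := ((pA x.a0 x.b0 x.a0 x.b0).add (pA x.a1 x.b1 x.a1 x.b1)).add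
  ((pA x.a2 x.b2 x.a2 x.b2).add (pA x.a3 x.b3 x.a3 x.b3))
/-- irrational part of the norm -/
def Ic.nB (x : Ic) : ℤ := ((pB x.a0 x.b0 x.a0 x.b0).add (pB x.a1 x.b1 x.a1 x.b1)).add
  ((pB x.a2 x.b2 x.a2 x.b2).add (pB x.a3 x.b3 x.a3 x.b3))

theorem iadd (a b : ℤ) : a.add b = a + b := rfl
theorem isub (a b : ℤ) : a.sub b = a - b := rfl
theorem imul (a b : ℤ) : a.mul b = a * b := rfl
theorem ineg (a : ℤ) : a.neg = -a := rfl

theorem ev_ad (x y : Ic) : ev (x.ad y) = ev x + ev y := by ext <;> simp [Ic.ad, iadd] <;> ring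
theorem ev_sb (x y : Ic) : ev (x.sb y) = ev x - ev y := by ext <;> simp [Ic.sb, isub] <;> ring
theorem ev_sm (k : ℤ) (x : Ic) : ev (x.sm k) = (k : ℝ) • ev x := by ext <;> simp [Ic.sm, imul] <;> ring
theorem ev_st (x : Ic) : ev x.st = star (ev x) := by ext <;> simp [Ic.st, ineg] <;> ring
theorem ev_m4 (x y : Ic) : ev (x.m4 y) = (2 : ℝ) • (ev x * ev y) := by
  ext <;> simp [Ic.m4, pA, pB, iadd, isub, imul]
  · linear_combination (-(x.b0 * y.b0 - x.b1 * y.b1 - x.b2 * y.b2 - x.b3 * y.b3 : ℝ) / 2) * tt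
  · linear_combination (-(x.b0 * y.b1 + x.b1 * y.b0 + x.b2 * y.b3 - x.b3 * y.b2 : ℝ) / 2) * tt
  · linear_combination (-(x.b0 * y.b2 - x.b1 * y.b3 + x.b2 * y.b0 + x.b3 * y.b1 : ℝ) / 2) * tt
  · linear_combination (-(x.b0 * y.b3 + x.b1 * y.b2 - x.b2 * y.b1 + x.b3 * y.b0 : ℝ) / 2) * tt
theorem ev_n (x : Ic) : 4 * normSq (ev x) = x.nA + x.nB * tau := by
  simp [normSq_def', Ic.nA, Ic.nB, pA, pB, iadd, imul]
  linear_combination ((x.b0 : ℝ) ^ 2 + x.b1 ^ 2 + x.b2 ^ 2 + x.b3 ^ 2) * tt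

/-- the parity conditions -/
def IsI (x : Ic) : Prop := (x.a0 + x.b3 + x.a3 + x.b2) % 2 = 0 ∧ (x.b0 + x.a3 + x.a2 + x.b2) % 2 = 0 ∧
  (x.a1 + x.b3 + x.a2 + x.b2) % 2 = 0 ∧ (x.b1 + x.b3 + x.a3 + x.a2) % 2 = 0

/-- divisibility -/
def Dv (k : ℤ) (x : Ic) : Prop := x.a0 % k = 0 ∧ x.b0 % k = 0 ∧ x.a1 % k = 0 ∧ x.b1 % k = 0 ∧ x.a2 % k = 0 ∧
  x.b2 % k = 0 ∧ x.a3 % k = 0 ∧ x.b3 % k = 0

instance (x : Ic) : Decidable (IsI x) := by unfold IsI; infer_instance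
instance (k : ℤ) (x : Ic) : Decidable (Dv k x) := by unfold Dv; infer_instance

theorem sm_dv {k : ℤ} {x : Ic} (h : Dv k x) : (x.dv k).sm k = x := by
  cases x
  simp only [Dv, ← Int.dvd_iff_emod_eq_zero] at h
  simp [Ic.sm, Ic.dv, imul, Int.mul_ediv_cancel', h]

/-- constants -/
def c1 : Ic := ⟨2, 0, 0, 0, 0, 0, 0, 0⟩
/-- constants -/
def cI : Ic := ⟨0, 0, 2, 0, 0, 0, 0, 0⟩
/-- constants -/
def cO : Ic := ⟨1, 0, 1, -1, 0, 0, 0, 1⟩
/-- constants -/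
def cH : Ic := ⟨1, -2, 1, 0, 1, 0, 1, 0⟩
/-- constants -/
def c0 : Ic := ⟨0, 0, 0, 0, 0, 0, 0, 0⟩

theorem ev_c1 : ev c1 = 1 := by ext <;> simp [c1]
theorem ev_c0 : ev c0 = 0 := by ext <;> simp [c0]
theorem ev_cI : ev cI = qI := by ext <;> simp [cI, qI]
theorem ev_cO : ev cO = ⟨1 / 2, sig / 2, 0, tau / 2⟩ := by ext <;> simp [cO, sig_eq]; ring
theorem ev_cH : ev cH = icoH := by ext <;> simp [cH, icoH, s5]; ring

theorem half {x : Ic} {q : ℍ[ℝ]} {k : ℤ} (hk : k ≠ 0) (h : Dv k x) (e : ev x = (k : ℝ) • q) : ev (x.dv k) = q := by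
  rw [← sm_dv h, ev_sm] at e
  exact smul_right_injective _ (by exact_mod_cast hk) e

theorem mem_ico {q : ℍ[ℝ]} : q ∈ icosians ↔ ∃ x, IsI x ∧ ev x = q := by
  constructor
  · intro h
    suffices ∀ x, IsI x → ∃ y, IsI y ∧ ev y = q * ev x by simpa [ev_c1] using this c1 (by decide)
    induction h using Subring.closure_induction with
    | mem q hq =>
      intro x hx
      obtain ⟨c, rfl, h1, h2⟩ : ∃ c, ev c = q ∧ Dv 2 (c.m4 x) ∧ IsI ((c.m4 x).dv 2) := by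
        rcases hq with rfl | rfl
        exacts [⟨cI, ev_cI, by simp only [IsI, Dv, Ic.m4, Ic.dv, cI, pA, pB, iadd, isub, imul] at hx ⊢; omega⟩,
          ⟨cO, ev_cO, by simp only [IsI, Dv, Ic.m4, Ic.dv, cO, pA, pB, iadd, isub, imul] at hx ⊢; omega⟩]
      exact ⟨_, h2, half (by decide) h1 (by rw [ev_m4]; norm_num)⟩
    | zero => exact fun x _ => ⟨c0, by decide, by simp [ev_c0]⟩
    | one => exact fun x hx => ⟨x, hx, by simp⟩
    | add p q _ _ h1 h2 =>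
      intro x hx
      obtain ⟨y, a, b⟩ := h1 x hx
      obtain ⟨z, c, d⟩ := h2 x hx
      exact ⟨y.ad z, by simp only [IsI, Ic.ad, iadd] at a c ⊢; omega, by rw [ev_ad, b, d, add_mul]⟩
    | neg p _ h1 =>
      intro x hx
      obtain ⟨y, a, b⟩ := h1 x hx
      exact ⟨c0.sb y, by simp only [IsI, Ic.sb, isub, c0] at a ⊢; omega, by rw [ev_sb, b, ev_c0]; simp⟩
    | mul p q _ _ h1 h2 =>
      intro x hx
      obtain ⟨y, a, b⟩ := h2 x hx
      obtain ⟨z, c, d⟩ := h1 y a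
      exact ⟨z, c, by rw [d, b, mul_assoc]⟩
  · rintro ⟨x, hx, rfl⟩
    have i : qI ∈ icosians := Subring.subset_closure (Or.inl rfl)
    rw [← ev_cI] at i
    have o : ev cO ∈ icosians := ev_cO ▸ Subring.subset_closure (Or.inr rfl)
    have t : ((tau : ℝ) : ℍ[ℝ]) ∈ icosians := by
      have : ((tau : ℝ) : ℍ[ℝ]) = 1 + ev cI * ev cO + ev cO * ev cI - ev cI := by ext <;> simp [cO, cI] <;> ring
      exact this ▸ sub_mem (add_mem (add_mem (one_mem _) (mul_mem i o)) (mul_mem o i)) i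
    have k : ∀ a b : ℤ, ((a + b * tau : ℝ) : ℍ[ℝ]) ∈ icosians := fun a b => by
      push_cast; exact add_mem (intCast_mem _ a) (mul_mem (intCast_mem _ b) t)
    obtain ⟨a0, b0, a1, b1, a2, b2, a3, b3⟩ := x
    simp only [IsI] at hx
    obtain ⟨p, rfl⟩ : ∃ p, a0 = 2 * p + b3 - a3 - 2 * a2 + b2 := ⟨(a0 - b3 + a3 + 2 * a2 - b2) / 2, by omega⟩
    obtain ⟨q, rfl⟩ : ∃ p, b0 = 2 * p + a3 + a2 - b2 := ⟨(b0 - a3 - a2 + b2) / 2, by omega⟩
    obtain ⟨r, rfl⟩ : ∃ p, a1 = 2 * p + b3 - 2 * a3 + a2 - b2 := ⟨(a1 - b3 + 2 * a3 - a2 + b2) / 2, by omega⟩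
    obtain ⟨s, rfl⟩ : ∃ p, b1 = 2 * p - b3 + a3 - a2 := ⟨(b1 + b3 - a3 + a2) / 2, by omega⟩
    convert add_mem (add_mem (k p q) (mul_mem (k r s) i)) (add_mem (mul_mem (k (b3 - a3) a3) o)
      (mul_mem (k (a2 - b2) (-a2)) (mul_mem i o))) using 1
    ext <;> simp [cO, cI]
    · linear_combination (a2 / 2 : ℝ) * tt
    · linear_combination (a3 / 2 : ℝ) * tt
    · linear_combination (-a2 / 2 : ℝ) * tt
    · linear_combination (-a3 / 2 : ℝ) * tt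

theorem four_dvd {x : Ic} (hx : IsI x) : x.nA % 4 = 0 ∧ 0 ≤ x.nA ∧ (x.nA = 0 → ev x = 0) := by
  obtain ⟨a0, b0, a1, b1, a2, b2, a3, b3⟩ := x
  simp only [IsI] at hx
  simp only [Ic.nA, pA, iadd, imul]
  have := mul_self_nonneg a0; have := mul_self_nonneg b0; have := mul_self_nonneg a1; have := mul_self_nonneg b1
  have := mul_self_nonneg a2; have := mul_self_nonneg b2; have := mul_self_nonneg a3; have := mul_self_nonneg b3
  refine ⟨?_, by omega, fun h => ?_⟩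
  · have k : ∀ a : ℤ, (a % 2 = 0 ∧ a * a % 4 = 0) ∨ (a % 2 = 1 ∧ a * a % 4 = 1) := fun a => by
      obtain ⟨p, rfl | rfl⟩ := Int.even_or_odd' a
      · exact Or.inl ⟨by omega, by rw [show 2 * p * (2 * p) = 4 * (p * p) by ring]; omega⟩
      · exact Or.inr ⟨by omega, by rw [show (2 * p + 1) * (2 * p + 1) = 4 * (p * p + p) + 1 by ring]; omega⟩
    have := k a0; have := k b0; have := k a1; have := k b1; have := k a2; have := k b2; have := k a3; have := k b3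
    omega
  · have k : ∀ a : ℤ, a * a ≤ 0 → a = 0 := fun a h => by nlinarith
    rw [k a0 (by omega), k b0 (by omega), k a1 (by omega), k b1 (by omega), k a2 (by omega), k b2 (by omega),
      k a3 (by omega), k b3 (by omega)]
    exact ev_c0

theorem star_ico {q : ℍ[ℝ]} (h : q ∈ icosians) : star q ∈ icosians := by
  obtain ⟨x, hx, rfl⟩ := mem_ico.1 h
  exact mem_ico.2 ⟨x.st, by simp only [IsI, Ic.st, ineg] at hx ⊢; omega, ev_st x⟩

theorem H_ico : icoH ∈ icosians := mem_ico.2 ⟨cH, by decide, ev_cH⟩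

theorem nH : normSq icoH = 2 := by
  have := ev_n cH
  rw [ev_cH, show cH.nA = 8 by decide, show cH.nB = 0 by decide] at this
  push_cast at this; linarith

theorem HH : icoH * star icoH = 2 ∧ star icoH * icoH = 2 := by
  rw [self_mul_star, star_mul_self, nH]; exact ⟨rfl, rfl⟩

/-- test for membership in the left ideal generated by the conjugate of `c` -/
def InL (c w : Ic) : Prop := Dv 4 (w.m4 c) ∧ IsI ((w.m4 c).dv 4)

instance (c w : Ic) : Decidable (InL c w) := by unfold InL; infer_instance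

theorem inL_iff {c w : Ic} {q : ℍ[ℝ]} (h1 : q * ev c = 2) (h2 : ev c * q = 2) : InL c w ↔ ev w ∈ leftIdeal q := by
  constructor
  · rintro ⟨a, b⟩
    refine ⟨_, mem_ico.2 ⟨_, b, rfl⟩, ?_⟩
    rw [half (q := (1 / 2 : ℝ) • (ev w * ev c)) (by decide) a (by rw [ev_m4, smul_smul]; norm_num), smul_mul_assoc,
      mul_assoc, h2, mul_two, ← two_smul ℝ, smul_smul]
    norm_num
  · rintro ⟨a, ha, e⟩
    obtain ⟨x, hx, rfl⟩ := mem_ico.1 ha
    have : w.m4 c = x.sm 4 := ev_inj (by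
      rw [ev_m4, ev_sm, e, mul_assoc, h1, mul_two, ← two_smul ℝ, smul_smul]; norm_num)
    simp only [InL, this, IsI, Dv, Ic.sm, Ic.dv, imul] at hx ⊢
    omega

theorem inH {w : Ic} : InL cH.st w ↔ ev w ∈ leftIdeal icoH :=
  inL_iff (by rw [ev_st, ev_cH, HH.1]) (by rw [ev_st, ev_cH, HH.2])
theorem inB {w : Ic} : InL cH w ↔ ev w ∈ leftIdeal (star icoH) := inL_iff (by rw [ev_cH, HH.2]) (by rw [ev_cH, HH.1])

end CA.J2

theorem CA.realizeEqns_J2_Ico : True := by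
  have := @CA.J2.Ic.sm.eq_1
  have := @CA.J2.Ic.sm.eq_def
  have := @CA.J2.Ic.sm.congr_simp
  have := @CA.J2.cI.eq_1
  have := @CA.J2.cI.eq_def
  have := @CA.J2.cI.congr_simp
  have := @CA.J2.ev.eq_1
  have := @CA.J2.ev.eq_def
  have := @CA.J2.ev.congr_simp
  have := @CA.J2.Ic.sb.eq_1
  have := @CA.J2.Ic.sb.eq_def
  have := @CA.J2.Ic.sb.congr_simp
  have := @CA.J2.Ic.ad.eq_1
  have := @CA.J2.Ic.ad.eq_def
  have := @CA.J2.Ic.ad.congr_simp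
  have := @CA.J2.cH.eq_1
  have := @CA.J2.cH.eq_def
  have := @CA.J2.cH.congr_simp
  have := @CA.J2.c0.eq_1
  have := @CA.J2.c0.eq_def
  have := @CA.J2.c0.congr_simp
  have := @CA.J2.Ic.st.eq_1
  have := @CA.J2.Ic.st.eq_def
  have := @CA.J2.Ic.st.congr_simp
  have := @CA.J2.InL.eq_1
  have := @CA.J2.InL.eq_def
  have := @CA.J2.InL.congr_simp
  have := @CA.J2.Ic.nB.eq_1
  have := @CA.J2.Ic.nB.eq_def
  have := @CA.J2.Ic.nB.congr_simp
  have := @CA.J2.pB.eq_1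
  have := @CA.J2.pB.eq_def
  have := @CA.J2.pB.congr_simp
  have := @CA.J2.cO.eq_1
  have := @CA.J2.cO.eq_def
  have := @CA.J2.cO.congr_simp
  have := @CA.J2.Ic.dv.eq_1
  have := @CA.J2.Ic.dv.eq_def
  have := @CA.J2.Ic.dv.congr_simp
  have := @CA.J2.pA.eq_1
  have := @CA.J2.pA.eq_def
  have := @CA.J2.pA.congr_simp
  have := @CA.J2.Ic.nA.eq_1
  have := @CA.J2.Ic.nA.eq_def
  have := @CA.J2.Ic.nA.congr_simp
  have := @CA.J2.Ic.m4.eq_1
  have := @CA.J2.Ic.m4.eq_def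
  have := @CA.J2.Ic.m4.congr_simp
  have := @CA.J2.IsI.eq_1
  have := @CA.J2.IsI.eq_def
  have := @CA.J2.IsI.congr_simp
  have := @CA.J2.Dv.eq_1
  have := @CA.J2.Dv.eq_def
  have := @CA.J2.Dv.congr_simp
  have := @CA.J2.c1.eq_1
  have := @CA.J2.c1.eq_def
  have := @CA.J2.c1.congr_simp
  trivial
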