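/-
Quaternionic reflections of the icosian Leech lattice: theory and integer evaluation.
-/
import Cfsg.Agent.J2.Ico

set_option autoImplicit false
set_option linter.unusedSimpArgs false
set_option linter.unusedVariables false

namespace CA.J2

open Cfsg.Spor Quaternion CA.TC CA.PM

/-- the space -/
abbrev VV := Fin 3 → ℍ[ℝ]

theorem qip3 (x r : VV) : qip x r = x 0 * star (r 0) + x 1 * star (r 1) + x 2 * star (r 2) := by
  simp [qip, Fin.sum_univ_three]
theorem qip_subl (x y r : VV) : qip (x - y) r = qip x r - qip y r := by simp [qip3]; noncomm_ring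
theorem qip_addl (x y r : VV) : qip (x + y) r = qip x r + qip y r := by simp [qip3]; noncomm_ring
theorem qip_subr (x r s : VV) : qip x (r - s) = qip x r - qip x s := by simp [qip3]; noncomm_ring
theorem qip_sml (q : ℍ[ℝ]) (x r : VV) : qip (q • x) r = q * qip x r := by simp [qip3]; noncomm_ring
theorem qip_smr (q : ℍ[ℝ]) (x r : VV) : qip x (q • r) = qip x r * star q := by simp [qip3]; noncomm_ring
theorem qip_star (x r : VV) : star (qip x r) = qip r x := by simp [qip3]
theorem qrefl_eq (r x : VV) : qrefl r x = x - ((1 / 2 : ℝ) • qip x r) • r := rfl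

/-- the reflection as a linear map -/
noncomputable def Rf (r : VV) : Module.End ℍ[ℝ] VV where
  toFun := qrefl r
  map_add' x y := by simp only [qrefl_eq, qip_addl, smul_add, add_smul]; abel
  map_smul' q x := by simp only [qrefl_eq, qip_sml, smul_sub, RingHom.id_apply, smul_smul, mul_smul_comm]

theorem Rf_ap (r x : VV) : Rf r x = x - ((1 / 2 : ℝ) • qip x r) • r := rfl

theorem four_eq : (4 : ℍ[ℝ]) = (4 : ℝ) • (1 : ℍ[ℝ]) := by ext <;> simp <;> rfl

/-- isometries -/
def Iso (L : Module.End ℍ[ℝ] VV) : Prop := ∀ x y, qip (L x) (L y) = qip x y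

theorem Rf_iso {s : VV} (h : qip s s = 4) : Iso (Rf s) := fun x y => by
  simp only [Rf_ap, qip_subl, qip_subr, qip_sml, qip_smr, h, four_eq, Quaternion.star_smul, qip_star, smul_mul_assoc,
    mul_smul_comm, mul_one, sub_mul, smul_sub, smul_smul]
  module

theorem Iso.conj {L : Module.End ℍ[ℝ] VV} (h : Iso L) (r : VV) : L * Rf r = Rf (L r) * L :=
  LinearMap.ext fun x => by simp only [Module.End.mul_apply, Rf_ap, map_sub, map_smul, h x r]

theorem Rf_sq {s : VV} (h : qip s s = 4) (x : VV) : Rf s (Rf s x) = x := by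
  rw [Rf_ap s (Rf s x), Rf_ap, qip_subl, qip_sml, h, four_eq, sub_sub, ← add_smul]
  have : (1 / 2 : ℝ) • qip x s + (1 / 2 : ℝ) • (qip x s - (1 / 2 : ℝ) • qip x s * (4 : ℝ) • (1 : ℍ[ℝ])) = 0 := by
    simp only [smul_mul_assoc, mul_smul_comm, mul_one]; module
  rw [this, zero_smul, sub_zero]

theorem Rf_smul {u : ℍ[ℝ]} (h : star u * u = 1) (r : VV) : Rf (u • r) = Rf r :=
  LinearMap.ext fun x => by rw [Rf_ap, Rf_ap, qip_smr, smul_smul, smul_mul_assoc, mul_assoc, h, mul_one]

theorem Rf_line {v w : VV} (hv : qip v v = 4) (hw : qip w w = 4) (h : Rf v w = -w) : Rf w = Rf v := by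
  set l : ℍ[ℝ] := (1 / 4 : ℝ) • qip w v with hl
  have e : w = l • v := by
    have : (2 : ℝ) • w = ((1 / 2 : ℝ) • qip w v) • v := by
      rw [Rf_ap, sub_eq_iff_eq_add] at h
      rw [two_smul]; nth_rewrite 1 [h]; abel
    rw [hl, show (1 / 4 : ℝ) = 1 / 2 * (1 / 2) by norm_num, mul_smul, smul_assoc, ← this, smul_smul]; simp
  have n : l * star l = 1 := by
    rw [e, qip_sml, qip_smr, hv, four_eq, smul_mul_assoc _ (1 : ℍ[ℝ]), one_mul, mul_smul_comm] at hw
    exact smul_right_injective _ (by norm_num : (4 : ℝ) ≠ 0) hw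
  rw [e, Rf_smul (by rw [star_mul_self, ← self_mul_star, n])]

theorem li_add {q x y : ℍ[ℝ]} (hx : x ∈ leftIdeal q) (hy : y ∈ leftIdeal q) : x + y ∈ leftIdeal q := by
  obtain ⟨a, ha, rfl⟩ := hx
  obtain ⟨b, hb, rfl⟩ := hy
  exact ⟨a + b, add_mem ha hb, (add_mul _ _ _).symm⟩
theorem li_mul {q x c : ℍ[ℝ]} (hc : c ∈ icosians) (hx : x ∈ leftIdeal q) : c * x ∈ leftIdeal q := by
  obtain ⟨a, ha, rfl⟩ := hx
  exact ⟨c * a, mul_mem hc ha, (mul_assoc _ _ _).symm⟩

theorem lam_smul {c : ℍ[ℝ]} (hc : c ∈ icosians) {r : VV} (h : r ∈ icoLeech) : c • r ∈ icoLeech :=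
  ⟨fun t => mul_mem hc (h.1 t), by simpa [mul_sub] using li_mul hc h.2.1, by simpa [mul_sub] using li_mul hc h.2.2.1,
    by simpa [mul_add] using li_mul hc h.2.2.2⟩

theorem lam_add {x r : VV} (g : x ∈ icoLeech) (h : r ∈ icoLeech) : x + r ∈ icoLeech :=
  ⟨fun t => add_mem (g.1 t) (h.1 t), by convert li_add g.2.1 h.2.1 using 1; simp; abel,
    by convert li_add g.2.2.1 h.2.2.1 using 1; simp; abel, by convert li_add g.2.2.2 h.2.2.2 using 1; simp; abel⟩

theorem half_qip {x r : VV} (g : x ∈ icoLeech) (h : r ∈ icoLeech) : (1 / 2 : ℝ) • qip x r ∈ icosians := by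
  obtain ⟨g0, ⟨a, ha, e1⟩, ⟨b, hb, e2⟩, ⟨c, hc, e3⟩⟩ := g
  obtain ⟨h0, ⟨a', ha', f1⟩, ⟨b', hb', f2⟩, ⟨c', hc', f3⟩⟩ := h
  have m : qip x r ∈ icosians := by
    rw [qip3]
    exact add_mem (add_mem (mul_mem (g0 0) (star_ico (h0 0))) (mul_mem (g0 1) (star_ico (h0 1))))
      (mul_mem (g0 2) (star_ico (h0 2)))
  have x0 : x 0 = x 1 + a * icoH := by rw [← e1]; abel
  have x2 : x 2 = x 1 - b * icoH := by rw [← e2]; abel
  have r0 : star (r 0) = star (r 1) + star icoH * star a' := by rw [← star_mul, ← f1]; simp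
  have r2 : star (r 2) = star (r 1) - star icoH * star b' := by rw [← star_mul, ← f2]; simp
  have s3 : star (r 0) + star (r 1) + star (r 2) = icoH * star c' := by
    rw [← star_add, ← star_add, f3]; simp
  rw [x0, x2] at e3
  rw [r0, r2] at s3
  have k : qip x r + qip x r + qip x r = c * (star icoH * icoH) * star c' -
      (a - b) * (icoH * star icoH) * (star a' - star b') + (3 : ℤ) • (a * (icoH * star icoH) * star a' +
      b * (icoH * star icoH) * star b') := by
    rw [qip3, x0, x2, r0, r2]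
    have u1 := congrArg (· * (icoH * star c')) e3
    have u2 := congrArg (x 1 * ·) s3
    have u3 := congrArg ((a - b) * icoH * ·) s3
    simp only [mul_add, add_mul, mul_sub, sub_mul, mul_assoc] at u1 u2 u3 ⊢
    linear_combination (norm := module) u1 + (3 : ℤ) • u2 + u3
  rw [HH.1, HH.2] at k
  have : (1 / 2 : ℝ) • qip x r = c * star c' - (a - b) * (star a' - star b') + (3 : ℤ) • (a * star a' + b * star b') - qip x r := by
    apply smul_right_injective _ (by norm_num : (2 : ℝ) ≠ 0)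
    simp only [mul_two, add_mul] at k
    linear_combination (norm := module) k
  rw [this]
  exact sub_mem (add_mem (sub_mem (mul_mem hc (star_ico hc')) (mul_mem (sub_mem ha hb) (sub_mem (star_ico ha') (star_ico hb'))))
    (zsmul_mem (add_mem (mul_mem ha (star_ico ha')) (mul_mem hb (star_ico hb'))) 3)) m

theorem lam_Rf {x r : VV} (g : x ∈ icoLeech) (h : r ∈ icoLeech) : Rf r x ∈ icoLeech := by
  rw [Rf_ap, sub_eq_add_neg, ← neg_smul]
  exact lam_add g (lam_smul (neg_mem (half_qip g h)) h)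

/-- the permutation `f` is induced by `L` -/
def Ac (f : Equiv.Perm icoLeech) (L : Module.End ℍ[ℝ] VV) : Prop := ∀ x : icoLeech, ((f x : icoLeech) : VV) = L x

theorem Ac.mul {f g : Equiv.Perm icoLeech} {L M : Module.End ℍ[ℝ] VV} (h : Ac f L) (k : Ac g M) : Ac (f * g) (L * M) :=
  fun x => by rw [Equiv.Perm.mul_apply, h, k]; rfl
theorem Ac.ext {f g : Equiv.Perm icoLeech} {L : Module.End ℍ[ℝ] VV} (h : Ac f L) (k : Ac g L) : f = g :=
  Equiv.ext fun x => Subtype.ext ((h x).trans (k x).symm)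
theorem Ac.conj {f g : Equiv.Perm icoLeech} {L M N : Module.End ℍ[ℝ] VV} (h : Ac g L) (k : Ac f M) (e : L * M = N * L) :
    Ac (g * f * g⁻¹) N := fun x => by
  rw [Equiv.Perm.mul_apply, h.mul k, e, Module.End.mul_apply, ← h]; simp

/-- the reflection as an element of the reflection group -/
noncomputable def pr (r : VV) (h : r ∈ icoLeech ∧ qip r r = 4) : twoJ2 :=
  ⟨Function.Involutive.toPerm (fun x : icoLeech => (⟨Rf r x, lam_Rf x.2 h.1⟩ : icoLeech))
    (fun x => Subtype.ext (Rf_sq h.2 x)), Subgroup.subset_closure ⟨⟨r, h.1⟩, h.2, fun _ => rfl⟩⟩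

theorem pr_ac (r : VV) (h : r ∈ icoLeech ∧ qip r r = 4) : Ac (pr r h).1 (Rf r) := fun _ => rfl

theorem Ac.central {f : twoJ2} {c : ℝ} (h : Ac f.1 (c • 1)) : f ∈ Subgroup.center twoJ2 := by
  have : twoJ2 ≤ Subgroup.centralizer {f.1} := (Subgroup.closure_le _).2 fun g ⟨r, _, hr⟩ => by
    have k : Ac g (Rf r) := hr
    simp only [SetLike.mem_coe, Subgroup.mem_centralizer_iff, Set.mem_singleton_iff, forall_eq]
    exact (h.mul k).ext (by simpa using k.mul h)
  exact Subgroup.mem_center_iff.2 fun g => Subtype.ext (Subgroup.mem_centralizer_iff.1 (this g.2) _ rfl).symm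

/-- the reflection in `r` lies in `K` -/
def Good (K : Subgroup twoJ2) (r : VV) : Prop := ∃ g ∈ K, Ac g.1 (Rf r)

theorem Good.top {K : Subgroup twoJ2} (h : ∀ r ∈ icoLeech, qip r r = 4 → Good K r) : K = ⊤ := by
  refine top_unique fun ⟨g, hg⟩ _ => ?_
  induction hg using Subgroup.closure_induction with
  | mem f hf =>
    obtain ⟨r, h4, hr⟩ := hf
    obtain ⟨g, hg, e⟩ := h r r.2 h4
    have : g.1 = f := e.ext hr
    subst this; exact hg
  | one => exact K.one_mem
  | mul x y hx hy h1 h2 => exact K.mul_mem (h1 trivial) (h2 trivial)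
  | inv x hx h1 => exact K.inv_mem (h1 trivial)

theorem Good.conj {K : Subgroup twoJ2} {g : twoJ2} (hg : g ∈ K) {L : Module.End ℍ[ℝ] VV} (a : Ac g.1 L) (i : Iso L) {r : VV}
    (h : Good K r) : Good K (L r) := by
  obtain ⟨f, hf, e⟩ := h
  exact ⟨g * f * g⁻¹, K.mul_mem (K.mul_mem hg hf) (K.inv_mem hg), a.conj e (i.conj r)⟩

theorem Good.refl {K : Subgroup twoJ2} {s r : VV} (hs : Good K s) (h4 : qip s s = 4) (h : Good K r) : Good K (Rf s r) := by
  obtain ⟨g, hg, e⟩ := hs
  exact h.conj hg e (Rf_iso h4)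

theorem Good.smul {K : Subgroup twoJ2} {u : ℍ[ℝ]} (hu : star u * u = 1) {r : VV} (h : Good K (u • r)) : Good K r := by
  rwa [Good, Rf_smul hu] at h

end CA.J2

theorem CA.realizeEqns_J2_Refl : True := by
  have := @CA.J2.VV.eq_1
  have := @CA.J2.VV.eq_def
  have := @CA.J2.VV.congr_simp
  have := @CA.J2.Ac.eq_1
  have := @CA.J2.Ac.eq_def
  have := @CA.J2.Ac.congr_simp
  have := @CA.J2.Good.eq_1
  have := @CA.J2.Good.eq_def
  have := @CA.J2.Good.congr_simp
  have := @CA.J2.Iso.eq_1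
  have := @CA.J2.Iso.eq_def
  have := @CA.J2.Iso.congr_simp
  have := @CA.J2.pr.eq_1
  have := @CA.J2.pr.eq_def
  have := @CA.J2.pr.congr_simp
  have := @CA.J2.Rf.eq_1
  have := @CA.J2.Rf.eq_def
  have := @CA.J2.Rf.congr_simp
  trivial
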