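/-
Integer evaluation of reflections and matrices over the icosians; enumeration of short vectors.
-/
import Cfsg.Agent.J2.Refl

set_option autoImplicit false
set_option linter.unusedSimpArgs false
set_option linter.unusedVariables false

namespace CA.J2

open Cfsg.Spor Quaternion CA.TC CA.PM

/-- vectors -/
structure V3 where
  x : Ic
  y : Ic
  z : Ic

/-- matrices -/
structure M3 where
  p : V3
  q : V3
  r : V3

/-- the vector -/
noncomputable def evV (v : V3) : VV := ![ev v.x, ev v.y, ev v.z]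

@[simp] theorem evV0 (v : V3) : evV v 0 = ev v.x := rfl
@[simp] theorem evV1 (v : V3) : evV v 1 = ev v.y := rfl
@[simp] theorem evV2 (v : V3) : evV v 2 = ev v.z := rfl
theorem vext {u v : VV} (h0 : u 0 = v 0) (h1 : u 1 = v 1) (h2 : u 2 = v 2) : u = v := by
  funext t; fin_cases t; exacts [h0, h1, h2]

/-- forcing -/
noncomputable def frcI {α : Type} (x : ℤ) (k : ℤ → α) : α :=
  Int.rec (fun n => frc n fun m => k (Int.ofNat m)) (fun n => frc n fun m => k (Int.negSucc m)) x
theorem frcI_eq {α : Type} (x : ℤ) (k : ℤ → α) : frcI x k = k x := by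
  cases x with
  | ofNat n => exact frc_eq n fun m => k (Int.ofNat m)
  | negSucc n => exact frc_eq n fun m => k (Int.negSucc m)
/-- forcing -/
noncomputable def frcQ {α : Type} (x : Ic) (k : Ic → α) : α :=
  Ic.rec (fun a b c d e f g h => frcI a fun a => frcI b fun b => frcI c fun c => frcI d fun d => frcI e fun e =>
    frcI f fun f => frcI g fun g => frcI h fun h => k ⟨a, b, c, d, e, f, g, h⟩) x
theorem frcQ_eq {α : Type} (x : Ic) (k : Ic → α) : frcQ x k = k x := by cases x; simp only [frcQ, frcI_eq]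
/-- forcing -/
noncomputable def frcV {α : Type} (v : V3) (k : V3 → α) : α :=
  V3.rec (fun a b c => frcQ a fun a => frcQ b fun b => frcQ c fun c => k ⟨a, b, c⟩) v
theorem frcV_eq {α : Type} (x : V3) (k : V3 → α) : frcV x k = k x := by cases x; simp only [frcV, frcQ_eq]

/-- equality test -/
noncomputable def eqI (a b : ℤ) : Bool :=
  Int.rec (fun m => Int.rec (fun n => Nat.beq m n) (fun _ => false) b) (fun m => Int.rec (fun _ => false) (fun n => Nat.beq m n) b) a
theorem eqI_spec {a b : ℤ} (h : eqI a b = true) : a = b := by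
  cases a <;> cases b <;> first | exact congrArg _ (beq_iff.1 h) | cases h
theorem eqI_rfl (a : ℤ) : eqI a a = true := by cases a <;> exact beq_iff.2 rfl
/-- equality test -/
noncomputable def eqQ (x y : Ic) : Bool := band (eqI x.a0 y.a0) (band (eqI x.a1 y.a1) (band (eqI x.a2 y.a2) (band (eqI x.a3 y.a3)
  (band (eqI x.b0 y.b0) (band (eqI x.b1 y.b1) (band (eqI x.b2 y.b2) (eqI x.b3 y.b3)))))))
theorem eqQ_spec {x y : Ic} (h : eqQ x y = true) : x = y := by
  cases x; cases y
  simp only [eqQ, band_iff] at h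
  obtain ⟨a, b, c, d, e, f, g, h⟩ := h
  rw [eqI_spec a, eqI_spec b, eqI_spec c, eqI_spec d, eqI_spec e, eqI_spec f, eqI_spec g, eqI_spec h]
/-- equality test -/
noncomputable def eqV (u v : V3) : Bool := band (eqQ u.x v.x) (band (eqQ u.y v.y) (eqQ u.z v.z))
theorem eqV_spec {u v : V3} (h : eqV u v = true) : u = v := by
  cases u; cases v
  simp only [eqV, band_iff] at h
  rw [eqQ_spec h.1, eqQ_spec h.2.1, eqQ_spec h.2.2]

/-- twice the product, with a shortcut for zero factors -/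
noncomputable def mz (x c : Ic) : Ic := Bool.rec (x.m4 c) c0 (bor (eqQ c c0) (eqQ x c0))
theorem ev_mz (x c : Ic) : ev (mz x c) = (2 : ℝ) • (ev x * ev c) := by
  unfold mz
  cases h : bor (eqQ c c0) (eqQ x c0)
  · exact ev_m4 x c
  · rcases bor_iff.1 h with h | h <;> simp [eqQ_spec h, ev_c0]

/-- multiple -/
def V3.sm (v : V3) (k : ℤ) : V3 := ⟨v.x.sm k, v.y.sm k, v.z.sm k⟩
theorem evV_sm (k : ℤ) (v : V3) : evV (v.sm k) = (k : ℝ) • evV v := vext (ev_sm _ _) (ev_sm _ _) (ev_sm _ _)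

/-- twice the inner product -/
noncomputable def ip4 (v r : V3) : Ic := ((mz v.x r.x.st).ad (mz v.y r.y.st)).ad (mz v.z r.z.st)
theorem ev_ip4 (v r : V3) : ev (ip4 v r) = (2 : ℝ) • qip (evV v) (evV r) := by
  simp [ip4, ev_ad, ev_mz, ev_st, qip3]

/-- eight times the reflection -/
noncomputable def F (r v : V3) : V3 := frcV v fun v => frcQ (ip4 v r) fun c =>
  ⟨(v.x.sm 8).sb (mz c r.x), (v.y.sm 8).sb (mz c r.y), (v.z.sm 8).sb (mz c r.z)⟩
theorem ev_F (r v : V3) : evV (F r v) = (8 : ℝ) • Rf (evV r) (evV v) := by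
  rw [F, frcV_eq, frcQ_eq, Rf_ap]
  refine vext ?_ ?_ ?_ <;> simp [ev_sb, ev_sm, ev_mz, ev_ip4, smul_sub, smul_smul] <;> norm_num

/-- basis -/
def e0 : V3 := ⟨c1, c0, c0⟩
/-- basis -/
def e1 : V3 := ⟨c0, c1, c0⟩
/-- basis -/
def e2 : V3 := ⟨c0, c0, c1⟩

theorem vdec (v : VV) : v = v 0 • evV e0 + v 1 • evV e1 + v 2 • evV e2 := by
  refine vext ?_ ?_ ?_ <;> simp [e0, e1, e2, ev_c0, ev_c1]

theorem end_ext {L M : Module.End ℍ[ℝ] VV} (h0 : L (evV e0) = M (evV e0)) (h1 : L (evV e1) = M (evV e1))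
    (h2 : L (evV e2) = M (evV e2)) : L = M :=
  LinearMap.ext fun v => by rw [vdec v]; simp only [map_add, map_smul, h0, h1, h2]

/-- four times the image under a matrix -/
noncomputable def ap (T : M3) (v : V3) : V3 := frcV v fun v =>
  ⟨((mz v.x T.p.x).ad (mz v.y T.q.x)).ad (mz v.z T.r.x), ((mz v.x T.p.y).ad (mz v.y T.q.y)).ad (mz v.z T.r.y),
    ((mz v.x T.p.z).ad (mz v.y T.q.z)).ad (mz v.z T.r.z)⟩

/-- `T` is twice the matrix of `L` -/
def Rep (T : M3) (L : Module.End ℍ[ℝ] VV) : Prop :=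
  evV T.p = (2 : ℝ) • L (evV e0) ∧ evV T.q = (2 : ℝ) • L (evV e1) ∧ evV T.r = (2 : ℝ) • L (evV e2)

theorem ev_ap {T : M3} {L : Module.End ℍ[ℝ] VV} (h : Rep T L) (v : V3) : evV (ap T v) = (4 : ℝ) • L (evV v) := by
  have : evV (ap T v) = (2 : ℝ) • (ev v.x • evV T.p + ev v.y • evV T.q + ev v.z • evV T.r) := by
    rw [ap, frcV_eq]
    refine vext ?_ ?_ ?_ <;> simp [ev_ad, ev_mz]
  rw [this, h.1, h.2.1, h.2.2, vdec (evV v)]
  simp only [map_add, map_smul, evV0, evV1, evV2]
  rw [smul_comm (ev v.x), smul_comm (ev v.y), smul_comm (ev v.z), ← smul_add, ← smul_add, smul_smul]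
  norm_num

/-- iteration along a word -/
noncomputable def itr (f : ℕ → V3 → V3) (w : List ℕ) (v : V3) : V3 := List.rec v (fun g _ ih => f g ih) w

theorem ev_itr {f : ℕ → V3 → V3} {L : ℕ → Module.End ℍ[ℝ] VV} {k : ℝ} (h : ∀ g v, evV (f g v) = k • L g (evV v))
    (w : List ℕ) (v : V3) : evV (itr f w v) = k ^ w.length • (w.map L).prod (evV v) := by
  induction w with
  | nil => simp [itr]
  | cons g w ih =>
    rw [show itr f (g :: w) v = f g (itr f w v) from rfl, h, ih]
    simp [pow_succ', mul_smul]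

theorem Ac.wd {b : ℕ → twoJ2} {L : ℕ → Module.End ℍ[ℝ] VV} (h : ∀ g, Ac (b g).1 (L g)) (w : List ℕ) :
    Ac (PM.wd b w).1 (w.map L).prod := by
  induction w with
  | nil => exact fun _ => rfl
  | cons g w ih => rw [PM.wd_cons]; exact (h g).mul ih

theorem Iso.wd {L : ℕ → Module.End ℍ[ℝ] VV} (h : ∀ g, Iso (L g)) (w : List ℕ) : Iso (w.map L).prod := by
  induction w with
  | nil => exact fun _ _ => rfl
  | cons g w ih => exact fun x y => (h g _ _).trans (ih x y)

/-- test: the word acts as a scalar -/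
noncomputable def scal (f : ℕ → V3 → V3) (w : List ℕ) : Bool := frcV (itr f w e0) fun v => frcI (v.x.a0 / 2) fun k =>
  band (eqV v (e0.sm k)) (band (frcV (itr f w e1) fun v => eqV v (e1.sm k)) (frcV (itr f w e2) fun v => eqV v (e2.sm k)))

theorem scal_spec {f : ℕ → V3 → V3} {L : ℕ → Module.End ℍ[ℝ] VV} {k : ℝ} (hk : k ≠ 0)
    (h : ∀ g v, evV (f g v) = k • L g (evV v)) {w : List ℕ} (hw : scal f w = true) : ∃ c : ℝ, (w.map L).prod = c • 1 := by
  simp only [scal, frcV_eq, frcI_eq, band_iff] at hw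
  generalize (itr f w e0).x.a0 / 2 = m at hw
  have t : ∀ e, eqV (itr f w e) (e.sm m) = true →
      (w.map L).prod (evV e) = (((k ^ w.length)⁻¹ * m) • (1 : Module.End ℍ[ℝ] VV)) (evV e) := fun e he => by
    have := congrArg evV (eqV_spec he)
    rw [ev_itr h, evV_sm] at this
    simp [mul_smul, ← this, hk]
  exact ⟨_, end_ext (t _ hw.1) (t _ hw.2.1) (t _ hw.2.2)⟩

/-- test: `v` is a root -/
def Root (v : V3) : Prop := IsI v.x ∧ IsI v.y ∧ IsI v.z ∧ InL cH.st (v.x.sb v.y) ∧ InL cH.st (v.y.sb v.z) ∧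
  InL cH ((v.x.ad v.y).ad v.z) ∧ v.x.nA + v.y.nA + v.z.nA = 16 ∧ v.x.nB + v.y.nB + v.z.nB = 0

instance (v : V3) : Decidable (Root v) := by unfold Root; infer_instance

theorem qip_self (v : V3) : qip (evV v) (evV v) =
    ((((v.x.nA + v.y.nA + v.z.nA : ℤ) + (v.x.nB + v.y.nB + v.z.nB : ℤ) * tau) / 4 : ℝ) : ℍ[ℝ]) := by
  rw [qip3, self_mul_star, self_mul_star, self_mul_star, ← coe_add, ← coe_add, evV0, evV1, evV2]
  have := ev_n v.x; have := ev_n v.y; have := ev_n v.z
  congr 1; push_cast; linarith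

theorem four_coe : (4 : ℍ[ℝ]) = ((4 : ℝ) : ℍ[ℝ]) := rfl

theorem root_iff {v : V3} : Root v ↔ evV v ∈ icoLeech ∧ qip (evV v) (evV v) = 4 := by
  have n : qip (evV v) (evV v) = 4 ↔ v.x.nA + v.y.nA + v.z.nA = 16 ∧ v.x.nB + v.y.nB + v.z.nB = 0 := by
    rw [qip_self, four_coe, coe_inj]
    exact ⟨fun h => irr (by push_cast at h ⊢; linarith), fun h => by rw [h.1, h.2]; norm_num⟩
  have m : ∀ x, IsI x ↔ ev x ∈ icosians := fun x =>
    ⟨fun h => mem_ico.2 ⟨x, h, rfl⟩, fun h => by obtain ⟨y, hy, e⟩ := mem_ico.1 h; rwa [← ev_inj e]⟩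
  simp only [Root, inH, inB, ev_sb, ev_ad, n, m, icoLeech, Set.mem_ofPred_eq, Fin.forall_fin_succ, and_assoc]
  simp

/-- test: same line -/
noncomputable def line (v w : V3) : Bool := frcV w fun w => frcV (F v w) fun u => eqV u (w.sm (-8))

theorem line_spec {v w : V3} {u : VV} {c : ℝ} (hc : c ≠ 0) (e : evV w = c • u) (hv : Root v) (hu : qip u u = 4)
    (h : line v w = true) : Rf u = Rf (evV v) := by
  simp only [line, frcV_eq] at h
  have := congrArg evV (eqV_spec h)
  rw [ev_F, evV_sm, e, LinearMap.map_smul_of_tower, smul_smul, smul_smul] at this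
  refine Rf_line (root_iff.1 hv).2 hu (smul_right_injective _ (mul_ne_zero (by norm_num : (8 : ℝ) ≠ 0) hc) ?_)
  simp [this]

/-- shift -/
noncomputable def push (x : Ic) (a : ℤ) : Ic := Ic.rec (fun b c d e f g h _ => ⟨a, b, c, d, e, f, g, h⟩) x

/-- enumeration of the vectors with a given sum of squares (at most 8) -/
noncomputable def allS (P : Ic → Bool) (n : ℕ) : ℕ → Ic → Bool :=
  Nat.rec (fun k x => Nat.rec (P x) (fun _ _ => true) k)
    (fun _ ih k x => band (ih k (push x 0)) (Nat.rec true (fun j _ => band (ih j (push x 1)) (band (ih j (push x (-1)))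
      (bor (blt j 3) (frc (Nat.sub j 3) fun i => band (ih i (push x 2)) (ih i (push x (-2))))))) k)) n

theorem allS_spec {P : Ic → Bool} (l : List ℤ) {k : ℕ} {x : Ic} (hk : k ≤ 8) (h : allS P l.length k x = true)
    (e : (l.map fun a => a * a).sum = k) : P (l.foldl push x) = true := by
  induction l generalizing k x with
  | nil =>
    obtain rfl : k = 0 := by simpa using e.symm
    exact h
  | cons a l ih =>
    have p : 0 ≤ (l.map fun a => a * a).sum := List.sum_nonneg (by simpa using fun a _ => mul_self_nonneg a)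
    rw [List.map_cons, List.sum_cons] at e
    have h1 : a ≤ 2 := by nlinarith
    have h2 : -2 ≤ a := by nlinarith
    obtain ⟨h0, h⟩ := band_iff.1 h
    by_cases a0 : a = 0
    · subst a0; exact ih hk h0 (by simpa using e)
    have := mul_self_pos.2 a0
    obtain ⟨j, rfl⟩ : ∃ j, k = j + 1 := ⟨k - 1, by omega⟩
    obtain ⟨k1, h⟩ := band_iff.1 h
    obtain ⟨k2, h⟩ := band_iff.1 h
    by_cases a1 : a * a = 1
    · rcases mul_self_eq_one_iff.1 a1 with rfl | rfl
      exacts [ih (by omega) k1 (by omega), ih (by omega) k2 (by omega)]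
    have a2 : a = 2 ∨ a = -2 := by
      by_contra c
      exact a1 (by obtain rfl | rfl : a = 1 ∨ a = -1 := by omega
                   all_goals rfl)
    have j3 : 3 ≤ j := by rcases a2 with rfl | rfl <;> omega
    rcases bor_iff.1 h with h | h
    · have := blt_iff.1 h; omega
    rw [frc_eq] at h
    obtain ⟨k3, k4⟩ := band_iff.1 h
    have s : ((Nat.sub j 3 : ℕ) : ℤ) = j - 3 := by simp [Nat.cast_sub j3]
    rcases a2 with rfl | rfl
    exacts [ih (by simp; omega) k3 (by omega), ih (by simp; omega) k4 (by omega)]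

theorem allS_nA {P : Ic → Bool} {k : ℕ} (hk : k ≤ 8) (h : allS P 8 k c0 = true) {x : Ic} (e : x.nA = k) : P x = true :=
  allS_spec [x.b3, x.a3, x.b2, x.a2, x.b1, x.a1, x.b0, x.a0] hk h (by
    rw [← e]; simp [Ic.nA, pA, iadd, imul]; ring)

end CA.J2

theorem CA.realizeEqns_J2_Calc : True := by
  have := @CA.J2.scal.eq_1
  have := @CA.J2.scal.eq_def
  have := @CA.J2.scal.congr_simp
  have := @CA.J2.evV.eq_1
  have := @CA.J2.evV.eq_def
  have := @CA.J2.evV.congr_simp
  have := @CA.J2.eqI.eq_1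
  have := @CA.J2.eqI.eq_def
  have := @CA.J2.eqI.congr_simp
  have := @CA.J2.ip4.eq_1
  have := @CA.J2.ip4.eq_def
  have := @CA.J2.ip4.congr_simp
  have := @CA.J2.V3.sm.eq_1
  have := @CA.J2.V3.sm.eq_def
  have := @CA.J2.V3.sm.congr_simp
  have := @CA.J2.push.eq_1
  have := @CA.J2.push.eq_def
  have := @CA.J2.push.congr_simp
  have := @CA.J2.allS.eq_1
  have := @CA.J2.allS.eq_def
  have := @CA.J2.allS.congr_simp
  have := @CA.J2.line.eq_1
  have := @CA.J2.line.eq_def
  have := @CA.J2.line.congr_simp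
  have := @CA.J2.e0.eq_1
  have := @CA.J2.e0.eq_def
  have := @CA.J2.e0.congr_simp
  have := @CA.J2.eqQ.eq_1
  have := @CA.J2.eqQ.eq_def
  have := @CA.J2.eqQ.congr_simp
  have := @CA.J2.Root.eq_1
  have := @CA.J2.Root.eq_def
  have := @CA.J2.Root.congr_simp
  have := @CA.J2.itr.eq_1
  have := @CA.J2.itr.eq_def
  have := @CA.J2.itr.congr_simp
  have := @CA.J2.e1.eq_1
  have := @CA.J2.e1.eq_def
  have := @CA.J2.e1.congr_simp
  have := @CA.J2.frcV.eq_1
  have := @CA.J2.frcV.eq_def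
  have := @CA.J2.frcV.congr_simp
  have := @CA.J2.frcQ.eq_1
  have := @CA.J2.frcQ.eq_def
  have := @CA.J2.frcQ.congr_simp
  have := @CA.J2.mz.eq_1
  have := @CA.J2.mz.eq_def
  have := @CA.J2.mz.congr_simp
  have := @CA.J2.Rep.eq_1
  have := @CA.J2.Rep.eq_def
  have := @CA.J2.Rep.congr_simp
  have := @CA.J2.e2.eq_1
  have := @CA.J2.e2.eq_def
  have := @CA.J2.e2.congr_simp
  have := @CA.J2.eqV.eq_1
  have := @CA.J2.eqV.eq_def
  have := @CA.J2.eqV.congr_simp
  have := @CA.J2.frcI.eq_1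
  have := @CA.J2.frcI.eq_def
  have := @CA.J2.frcI.congr_simp
  have := @CA.J2.ap.eq_1
  have := @CA.J2.ap.eq_def
  have := @CA.J2.ap.congr_simp
  have := @CA.J2.F.eq_1
  have := @CA.J2.F.eq_def
  have := @CA.J2.F.congr_simp
  trivial
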