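/-
The icosian reflection group modulo its centre is the Hall–Janko group of the permutation model.
-/
import Cfsg.Agent.J2.Gen

set_option autoImplicit false
set_option linter.unusedSimpArgs false
set_option linter.unusedVariables false

namespace CA.J2

open Cfsg.Spor Quaternion CA.TC CA.PM CA.PM.HJ

theorem rt_root (g : ℕ) : Root (rt g) := of_decide_eq_true (allL_spec k_rt _ (by
  rcases nth_mem rt0 rtL g with h | h
  exacts [h ▸ List.mem_cons_self, List.mem_cons_of_mem _ h]))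

/-- the base reflections -/
noncomputable def bb (g : ℕ) : twoJ2 := pr (evV (rt g)) (root_iff.1 (rt_root g))
/-- the letters upstairs -/
noncomputable def aa (g : ℕ) : twoJ2 := PM.wd bb (lt g).1
/-- the letters as linear maps -/
noncomputable def LL (g : ℕ) : Module.End ℍ[ℝ] VV := ((lt g).1.map fun i => Rf (evV (rt i))).prod
/-- the letters -/
noncomputable def aj (g : ℕ) : J2 := QuotientGroup.mk' _ (aa g)

theorem aa_ac (g : ℕ) : Ac (aa g).1 (LL g) := Ac.wd (fun _ => pr_ac _ _) _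
theorem LL_iso (g : ℕ) : Iso (LL g) := Iso.wd (fun i => Rf_iso (root_iff.1 (rt_root i)).2) _

theorem rowc_spec {w : List ℕ} {e u : V3} (h : rowc w e u = true) :
    evV u = (2 : ℝ) • (w.map fun i => Rf (evV (rt i))).prod (evV e) := by
  rw [rowc, frcV_eq] at h
  have := congrArg evV (eqV_spec h)
  rw [evV_sm, evV_sm, ev_itr (f := fr) (L := fun i => Rf (evV (rt i))) (k := 8) fun g v => ev_F _ _, smul_comm] at this
  refine smul_right_injective _ (pow_ne_zero w.length (by norm_num : (8 : ℝ) ≠ 0)) ?_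
  simpa using this.symm

theorem LL_rep (g : ℕ) : Rep (lt g).2 (LL g) := by
  have : lt g ∈ ltL := (nth_mem lt0 ltL g).elim (fun h => by rw [lt, h]; exact List.mem_cons_self) id
  have h := allL_spec k_lt _ this
  simp only [band_iff] at h
  exact ⟨rowc_spec h.1, rowc_spec h.2.1, rowc_spec h.2.2⟩

theorem fl_spec (g : ℕ) (v : V3) : evV (fl g v) = (4 : ℝ) • LL g (evV v) := ev_ap (LL_rep g) v

theorem wd_aj (w : List ℕ) : PM.wd aj w = QuotientGroup.mk' _ (PM.wd aa w) := PM.wd_map _ aa w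

theorem rel_of {w : List ℕ} (h : scal fl w = true) : PM.wd aj w = 1 := by
  obtain ⟨c, e⟩ := scal_spec (by norm_num) fl_spec h
  have := Ac.wd aa_ac w
  rw [e] at this
  rw [wd_aj]; exact (QuotientGroup.eq_one_iff _).2 this.central

/-- the preimage of the group generated by the letters -/
noncomputable def KK : Subgroup twoJ2 := (gp aj ALL).comap (QuotientGroup.mk' _)

theorem root0 : Root rt0 := rt_root 0

theorem LL1 : LL 1 = Rf (evV rt0) := mul_one _

theorem good0 : Good KK (evV rt0) := ⟨aa 1, mem_gp (a := aj) (by decide +kernel), LL1 ▸ aa_ac 1⟩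

theorem Gc_spec {v : V3} (h : Gc v = true) : Good KK (evV v) := by
  rw [Gc, frcV_eq] at h
  obtain ⟨p, hp, e⟩ := anyL_spec h
  have k := allL_spec k_CC p hp
  simp only [band_iff, decide_eq_true_eq] at k
  have i := Iso.wd LL_iso p.2
  have := good0.conj (g := PM.wd aa p.2) (by rw [KK, Subgroup.mem_comap, ← wd_aj]; exact wd_mem_gp k.2.1) (Ac.wd aa_ac _) i
  rwa [Good, line_spec (pow_ne_zero _ (by norm_num)) (ev_itr fl_spec _ _) k.1
    ((i _ _).trans (root_iff.1 root0).2) k.2.2, eqV_spec e] at this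

/-- the claim -/
def PP (x y z : Ic) : Prop := Root ⟨x, y, z⟩ → Good KK (evV ⟨x, y, z⟩)

theorem PP.of {s u v : V3} (hs : Root s) (g : Gc s = true) (e : Rf (evV s) (evV u) = evV v) (h : Root v → Good KK (evV v))
    (hu : Root u) : Good KK (evV u) := by
  have a := root_iff.1 hs
  have b := root_iff.1 hu
  have := (Gc_spec g).refl a.2 (h (root_iff.2 (e ▸ ⟨lam_Rf b.1 a.1, (Rf_iso a.2 _ _).trans b.2⟩)))
  rwa [← e, Rf_sq a.2] at this

theorem ev_nH : ev (c0.sb cH) = -icoH := by rw [ev_sb, ev_c0, ev_cH, zero_sub]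

theorem hlf (a b : ℍ[ℝ]) : (1 / 2 : ℝ) • ((a * star icoH - b * star icoH) * icoH) = a - b := by
  rw [← sub_mul, mul_assoc, HH.2, mul_two, ← two_smul ℝ, smul_smul]; norm_num

theorem PP.s1 {x y z : Ic} (h : PP y x z) : PP x y z :=
  PP.of (s := ⟨cH, c0.sb cH, c0⟩) (by decide) (by decide +kernel) (by
    refine vext ?_ ?_ ?_ <;> simp [Rf_ap, qip3, ev_cH, ev_nH, ev_c0, ← sub_eq_add_neg, -one_div, hlf]) h

theorem PP.s2 {x y z : Ic} (h : PP x z y) : PP x y z :=
  PP.of (s := ⟨c0, cH, c0.sb cH⟩) (by decide) (by decide +kernel) (by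
    refine vext ?_ ?_ ?_ <;> simp [Rf_ap, qip3, ev_cH, ev_nH, ev_c0, ← sub_eq_add_neg, -one_div, hlf]) h

theorem nn_eq {x y : Ic} {k : ℤ} (h : normSq (ev x) = k * normSq (ev y)) : x.nA = k * y.nA ∧ x.nB = k * y.nB :=
  irr (by push_cast; rw [← ev_n, h]; linear_combination (k : ℝ) * ev_n y)

theorem unit_of {a : Ic} (h : a.nA = 4) (k : a.nB = 0) : normSq (ev a) = 1 := by
  have := ev_n a
  rw [h, k] at this; push_cast at this; linarith

theorem nrm {x y z a c : Ic} (hv : Root ⟨x, y, z⟩) (ha : IsI a) (n : normSq (ev a) = 1) (e : ev c = star (ev a) * ev x)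
    (h : ∀ y' z' : Ic, y'.nA = y.nA → z'.nA = z.nA → PP c y' z') : Good KK (evV ⟨x, y, z⟩) := by
  have b := root_iff.1 hv
  have m := lam_smul (star_ico (mem_ico.2 ⟨a, ha, rfl⟩)) b.1
  obtain ⟨y', -, ey⟩ := mem_ico.1 (m.1 1)
  obtain ⟨z', -, ez⟩ := mem_ico.1 (m.1 2)
  have u : evV ⟨c, y', z'⟩ = star (ev a) • evV ⟨x, y, z⟩ := vext e ey ez
  have s : ev a * star (ev a) = 1 := by rw [self_mul_star, n]; rfl
  have s' : star (ev a) * ev a = 1 := by rw [star_mul_self, n]; rfl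
  have t : ∀ p q : Ic, ev p = star (ev a) * ev q → p.nA = q.nA := fun p q h => by
    simpa using (nn_eq (k := 1) (by rw [h, map_mul, normSq_star, n]; simp)).1
  refine Good.smul (u := star (ev a)) (by rw [star_star, s]) (u ▸ h y' z' (t _ _ ey) (t _ _ ez) (root_iff.2 (u ▸ ⟨m, ?_⟩)))
  rw [qip_sml, qip_smr, b.2, star_star, four_eq, smul_mul_assoc, one_mul, mul_smul_comm, s']

theorem p4 {y : Ic} (h : IsI y) (n : y.nA = 4) : (y.nB = 0 ∨ y.nB = 4) ∧ (InL cH.st (c1.sb y) → anyL CY (eqQ y) = true) :=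
  of_decide_eq_true (allS_nA (by decide) k_4 n) h

theorem p8 {z : Ic} (h : IsI z) (n : z.nA = 8) : -4 ≤ z.nB ∧ (z.nB ≤ 0 → (Root ⟨cH, z, c0⟩ → Gc ⟨cH, z, c0⟩ = true) ∧
    (InL cH.st (c1.sb z) → (allL CY fun y => decide (Root ⟨c1, y, z⟩ → Gc ⟨c1, y, z⟩ = true)) = true)) :=
  of_decide_eq_true (allS_nA (by decide) k_8 n) h

theorem cs1 {x y z : Ic} (hy : y.nA = 0) (hz : z.nA = 0) : PP x y z := fun h => by
  have y0 := (four_dvd h.2.1).2.2 hy
  have z0 := (four_dvd h.2.2.1).2.2 hz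
  have n := (root_iff.1 h).2
  simp only [qip3, evV0, evV1, evV2, y0, z0, zero_mul, add_zero] at n
  have c : ev c2 = (2 : ℝ) • 1 := by ext <;> simp [c2]; norm_num
  refine Good.smul (u := (1 / 2 : ℝ) • star (ev x)) ?_ ?_
  · rw [Quaternion.star_smul, star_star, smul_mul_smul_comm, n, four_eq, smul_smul]; norm_num
  · convert good0 using 1
    rw [self_mul_star, ← star_mul_self] at n
    refine vext ?_ ?_ ?_ <;> simp [rt0, y0, z0, ev_c0, c, n, four_eq, smul_smul]; norm_num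

theorem cs2 {x y z : Ic} (hx : x.nA ≠ 0) (hy : y.nA ≠ 0) (hz : z.nA = 0) : PP x y z := fun h => by
  have z0 := (four_dvd h.2.2.1).2.2 hz
  obtain rfl : z = c0 := ev_inj (z0.trans ev_c0.symm)
  have h2 := inH.1 h.2.2.2.2.1
  have h1 := li_add (inH.1 h.2.2.2.1) h2
  simp only [ev_sb, z0, sub_zero, sub_add_cancel] at h1 h2
  obtain ⟨_, ha', e1⟩ := h1
  obtain ⟨_, hb', e2⟩ := h2
  obtain ⟨a, ha, rfl⟩ := mem_ico.1 ha'
  obtain ⟨b, hb, rfl⟩ := mem_ico.1 hb'
  have n1 := nn_eq (x := x) (y := a) (k := 2) (by rw [e1, map_mul, nH]; push_cast; ring)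
  have n2 := nn_eq (x := y) (y := b) (k := 2) (by rw [e2, map_mul, nH]; push_cast; ring)
  have s : x.nA + y.nA + 0 = 16 ∧ x.nB + y.nB + 0 = 0 := h.2.2.2.2.2.2
  have := four_dvd ha; have := four_dvd hb
  have a4 : a.nA = 4 := by omega
  have := (p4 ha a4).1; have := (p4 hb (by omega)).1
  have n := unit_of a4 (by omega)
  refine nrm h ha n (c := cH) (by rw [e1, ← mul_assoc, star_mul_self, n, ev_cH]; simp) fun y' z' ey ez k => ?_
  obtain rfl : z' = c0 := ev_inj (((four_dvd k.2.2.1).2.2 ez).trans ev_c0.symm)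
  have s : 0 + y'.nB + 0 = 0 := k.2.2.2.2.2.2.2
  exact Gc_spec (((p8 (z := y') k.2.1 (by omega)).2 (by omega)).1 k)

theorem cs3 {x y z : Ic} (hx : x.nA = 4) (hb : x.nB = 0) (hy : y.nA = 4) (hz : z.nA = 8) : PP x y z := fun h => by
  have n := unit_of hx hb
  refine nrm h h.1 n (c := c1) (by rw [star_mul_self, n, ev_c1]; rfl) fun y' z' ey ez k => ?_
  have s : 0 + y'.nB + z'.nB = 0 := k.2.2.2.2.2.2.2
  have a := p4 (y := y') k.2.1 (ey.trans hy)
  obtain ⟨y, hy, e⟩ := anyL_spec (a.2 k.2.2.2.1)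
  obtain rfl := eqQ_spec e
  have i : InL cH.st (c1.sb z') := inH.2 (by simpa [ev_sb] using li_add (inH.1 k.2.2.2.1) (inH.1 k.2.2.2.2.1))
  exact Gc_spec (of_decide_eq_true (allL_spec (((p8 (z := z') k.2.2.1 (ez.trans hz)).2 (by omega)).2 i) _ hy) k)

theorem cs4 {x y z : Ic} (hx : x.nA = 4) (hy : y.nA = 4) (hz : z.nA = 8) : PP x y z := fun h => by
  have s : x.nB + y.nB + z.nB = 0 := h.2.2.2.2.2.2.2
  have := (p4 (y := x) h.1 hx).1; have := (p4 (y := y) h.2.1 hy).1; have := (p8 (z := z) h.2.2.1 hz).1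
  by_cases e : x.nB = 0
  exacts [cs3 hx e hy hz h, (cs3 hy (by omega) hx hz).s1 h]

theorem pp (x y z : Ic) : PP x y z := fun h => by
  have s : x.nA + y.nA + z.nA = 16 := h.2.2.2.2.2.2.1
  have := four_dvd (x := x) h.1; have := four_dvd (x := y) h.2.1; have := four_dvd (x := z) h.2.2.1
  by_cases a : x.nA = 0 <;> by_cases b : y.nA = 0 <;> by_cases c : z.nA = 0
  · exact cs1 b c h
  · exact (cs1 a b).s1.s2 h
  · exact (cs1 a c).s1 h
  · exact (cs2 b c a).s2.s1 h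
  · exact cs1 b c h
  · exact (cs2 a c b).s2 h
  · exact cs2 a b c h
  · obtain ⟨d, e, f⟩ | ⟨d, e, f⟩ | ⟨d, e, f⟩ : (x.nA = 4 ∧ y.nA = 4 ∧ z.nA = 8) ∨ (x.nA = 4 ∧ z.nA = 4 ∧ y.nA = 8) ∨
      (y.nA = 4 ∧ z.nA = 4 ∧ x.nA = 8) := by omega
    exacts [cs4 d e f h, (cs4 d e f).s2 h, (cs4 d e f).s2.s1 h]

theorem KK_top : KK = ⊤ := Good.top fun r hr h4 => by
  obtain ⟨x, -, a⟩ := mem_ico.1 (hr.1 0)
  obtain ⟨y, -, b⟩ := mem_ico.1 (hr.1 1)
  obtain ⟨z, -, c⟩ := mem_ico.1 (hr.1 2)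
  obtain rfl : evV ⟨x, y, z⟩ = r := vext a b c
  exact pp x y z (root_iff.2 ⟨hr, h4⟩)

theorem aj_top : gp aj ALL = ⊤ := top_unique fun y _ => by
  obtain ⟨x, rfl⟩ := QuotientGroup.mk'_surjective _ y
  exact (KK_top ▸ Subgroup.mem_top x : x ∈ KK)

theorem aj_ne : aj 1 ≠ 1 := fun h => by
  have c := Subgroup.mem_center_iff.1 ((QuotientGroup.eq_one_iff _).1 h) (aa 10)
  have r := (root_iff.1 root0).1
  have a := ev_itr fl_spec [10, 1] rt0
  have b := ev_itr fl_spec [1, 10] rt0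
  have e : PM.wd aa [10, 1] = PM.wd aa [1, 10] := by simpa using c
  erw [← Ac.wd aa_ac _ ⟨_, r⟩] at a b
  rw [e] at a
  have : (itr fl [10, 1] rt0).z = (itr fl [1, 10] rt0).z := ev_inj (congrFun (a.trans b.symm) 2)
  exact absurd (congrArg Ic.a3 this) (by decide +kernel)

/-- the icosian group is the permutation model -/
theorem iso : Nonempty (X ≃* J2) := by
  refine (pres (a := aj) (fun g hg => ?_) (fun r hr => rel_of (allL_spec k_ER r hr)) aj_top aj_ne).elim fun φ _ => ⟨φ⟩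
  have : g < 11 := by
    by_contra c
    rw [tb_eq, Nat.testBit_lt_two_pow (lt_of_lt_of_le (by decide : ALL < 2 ^ 11) (Nat.pow_le_pow_right (by decide) (by omega)))] at hg
    cases hg
  simpa using rel_of (allLt_spec k_sq g this)

end CA.J2

theorem CA.realizeEqns_J2_Iso : True := by
  have := @CA.J2.aj.eq_1
  have := @CA.J2.aj.eq_def
  have := @CA.J2.aj.congr_simp
  have := @CA.J2.aa.eq_1
  have := @CA.J2.aa.eq_def
  have := @CA.J2.aa.congr_simp
  have := @CA.J2.LL.eq_1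
  have := @CA.J2.LL.eq_def
  have := @CA.J2.LL.congr_simp
  have := @CA.J2.PP.eq_1
  have := @CA.J2.PP.eq_def
  have := @CA.J2.PP.congr_simp
  have := @CA.J2.KK.eq_1
  have := @CA.J2.KK.eq_def
  have := @CA.J2.KK.congr_simp
  have := @CA.J2.bb.eq_1
  have := @CA.J2.bb.eq_def
  have := @CA.J2.bb.congr_simp
  trivial
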